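import Cfsg.Agent.CosetEnum.Step
import Cfsg.Agent.CosetEnum.Front2
import Cfsg.Agent.CosetEnum.MSp6.AP0
import Cfsg.Agent.CosetEnum.MSp6.BP0
import Cfsg.Agent.CosetEnum.MSp6.CP0
import Cfsg.Agent.CosetEnum.Level
import Cfsg.Agent.CosetEnum.MSp6.TR0
import Cfsg.Agent.CosetEnum.MSp6.TR1
import Cfsg.Agent.CosetEnum.MSp6.TR2

/-! Certificates of coset enumerations and tables (generated, owner: helper28). -/

set_option autoImplicit false
set_option maxRecDepth 1000000

namespace Cfsg.Agent.CosetEnum.MSp6A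

theorem st : staticA 6 iv (RL.map expand) subs P L = true := by decide +kernel

theorem seg : Seg P L P.m 120 :=
  (Seg.nil).snoc part0

theorem cert : Cert 6 iv RL subs 120 := fun g H hl hrels hsubs =>
  upperA g H 6 iv hl (RL.map expand) subs hrels hsubs P L rfl st seg

end Cfsg.Agent.CosetEnum.MSp6A
namespace Cfsg.Agent.CosetEnum.MSp6B

theorem st : staticA 12 iv (RL.map expand) subs P L = true := by decide +kernel

theorem seg : Seg P L P.m 336 :=
  (Seg.nil).snoc part0

theorem cert : Cert 12 iv RL subs 336 := fun g H hl hrels hsubs =>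
  upperA g H 12 iv hl (RL.map expand) subs hrels hsubs P L rfl st seg

end Cfsg.Agent.CosetEnum.MSp6B
namespace Cfsg.Agent.CosetEnum.MSp6C

theorem st : staticA 14 iv (RL.map expand) subs P L = true := by decide +kernel

theorem seg : Seg P L P.m 72 :=
  (Seg.nil).snoc part0

theorem cert : Cert 14 iv RL subs 72 := fun g H hl hrels hsubs =>
  upperA g H 14 iv hl (RL.map expand) subs hrels hsubs P L rfl st seg

end Cfsg.Agent.CosetEnum.MSp6C
namespace Cfsg.Agent.CosetEnum.MSp6T

theorem st : letsB 14 iv lets RL = true := by decide +kernel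

theorem tabOK : TabOK P 14 iv lets RL := ⟨st, ((Cov.of r0 rfl).trans (Cov.of r1 rfl)).trans (Cov.of r2 rfl)⟩

theorem covO : Cov (orbC P lets [] 0 P.m) 0 P.m := ((Cov.of o0 rfl).trans (Cov.of o1 rfl)).trans (Cov.of o2 rfl)

end Cfsg.Agent.CosetEnum.MSp6T
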